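import Cfsg.Agent.HN.Mir

set_option autoImplicit false

namespace Cfsg.Agent.HN

/-- A configuration of two sets of involutions over a central involution `z` that cannot occur. -/
theorem mirror2 {H : Type*} [Group H] [Finite H] (z : H) (hz : ∀ g, g * z = z * g) (z2 : z * z = 1) (z1 : z ≠ 1)
    (X Z : H → Prop) (Xc : ∀ g a, X a → X (g * a * g⁻¹)) (Zc : ∀ g b, Z b → Z (g * b * g⁻¹))
    (Xz : ∀ a, X a → X (a * z)) (Zz : ∀ b, Z b → Z (b * z)) (X2 : ∀ a, X a → a * a = 1)
    (Z2 : ∀ b, Z b → b * b = 1) (XZ : ∀ a, X a → ¬ Z a) (X1 : ¬ X 1)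
    (p1 : ∀ a, X a → ∃ a2, X a2 ∧ a * a2 = a2 * a ∧ X (a * a2) ∧ ∀ x, X x → x * a = a * x →
      x = a ∨ x = a * z ∨ x = a2 ∨ x = a2 * z ∨ x = a * a2 ∨ x = a * a2 * z)
    (p2 : ∀ b, Z b → ∃ a, X a ∧ ∀ x, X x → x * a = a * x → b * x = x * b ∨ b * x = x * b * z)
    (p3 : ∀ a x b, X a → X x → Z b → x * a = a * x → b * a = a * b → b * x = x * b → x = a ∨ x = a * z)
    (p4 : ∀ a, X a → ∃ b, Z b ∧ b * a = a * b)
    (t t' t'' : H) (ht : X t) (ht' : X t') (ht'' : X t'') (hs : (t' * t'') ^ 3 = 1)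
    (h1 : (t' * t'') * t * (t' * t'')⁻¹ * t = t * ((t' * t'') * t * (t' * t'')⁻¹))
    (h2 : (t' * t'') * t * (t' * t'')⁻¹ ≠ t) (h3 : (t' * t'') * t * (t' * t'')⁻¹ ≠ t * z) : False := by
  have cz : ∀ g, Commute g z := hz
  have hN : (Subgroup.zpowers z).Normal := ⟨fun n hn g => by
    obtain ⟨k, rfl⟩ := hn
    rw [((cz g).zpow_right k).eq, mul_inv_cancel_right]
    exact ⟨k, rfl⟩⟩
  let f := QuotientGroup.mk' (Subgroup.zpowers z)
  have fs : Function.Surjective f := QuotientGroup.mk'_surjective _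
  have fz : f z = 1 := (QuotientGroup.eq_one_iff _).2 (Subgroup.mem_zpowers z)
  have hf : ∀ {g h}, f g = f h → g = h ∨ g = h * z := fun {g h} e => by
    obtain ⟨k, hk⟩ := QuotientGroup.eq.1 e.symm
    replace hk : g = h * z ^ k := by rw [← inv_mul_eq_iff_eq_mul]; exact hk.symm
    have : z ^ (2 : ℤ) = 1 := by rw [zpow_two, z2]
    rcases Int.even_or_odd' k with ⟨l, rfl | rfl⟩
    · exact Or.inl (by rw [hk, zpow_mul, this, one_zpow, mul_one])
    · exact Or.inr (by rw [hk, zpow_add, zpow_mul, this, one_zpow, one_mul, zpow_one])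
  have hf' : ∀ {g h}, g = h ∨ g = h * z → f g = f h := by
    rintro g h (rfl | rfl) <;> simp [fz]
  have cm : ∀ {g h}, Commute (f g) (f h) → g * h = h * g ∨ g * h = h * g * z := fun e =>
    hf (by simpa using e.eq)
  have cm' : ∀ {g h}, g * h = h * g ∨ g * h = h * g * z → Commute (f g) (f h) := fun e =>
    (map_mul f _ _).symm.trans ((hf' e).trans (map_mul f _ _))
  have Xf : ∀ {a x}, X a → f x = f a → X x := fun ha e => by
    rcases hf e with rfl | rfl
    exacts [ha, Xz _ ha]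
  have Zf : ∀ {a x}, Z a → f x = f a → Z x := fun ha e => by
    rcases hf e with rfl | rfl
    exacts [ha, Zz _ ha]
  have ne : ∀ {a x}, X a → X (a * x) → f x ≠ f a := fun {a x} ha hx e =>
    X1 (Xf hx (by rw [map_mul, e, ← map_mul, X2 a ha]))
  have q1 : ∀ a, X a → ∃ a2, X a2 ∧ a * a2 = a2 * a ∧ X (a * a2) ∧ ∀ x, X x → x * a = a * x →
      f x = f a ∨ f x = f a2 ∨ f x = f (a * a2) := fun a ha => by
    obtain ⟨a2, e1, e2, e3, e4⟩ := p1 a ha
    refine ⟨a2, e1, e2, e3, fun x hx e => ?_⟩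
    rcases e4 x hx e with rfl | rfl | rfl | rfl | rfl | rfl <;> simp [fz]
  have cf : ∀ {g x y}, f x = f y → Commute g y → Commute g x := fun e h => by
    rcases hf e with rfl | rfl
    exacts [h, h.mul_right (cz _)]
  have ab : ∀ {y x a}, X y → X x → X a → Commute x y → Commute a y → Commute x a :=
    fun {y x a} hy hx ha e e' => by
      obtain ⟨y2, -, e2, -, e4⟩ := q1 y hy
      have key : ∀ {g w}, X w → Commute w y → Commute g y → Commute g y2 → Commute g w :=
        fun hw h1 h2 h3 => by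
          rcases e4 _ hw h1 with h | h | h
          exacts [cf h h2, cf h h3, cf h (h2.mul_right h3)]
      exact key ha e' e (key hx e (Commute.symm e2) rfl).symm
  have G1 : ∀ {a x}, X a → X x → Commute (f x) (f a) → Commute x a := fun {a x} ha hx e => by
    refine (cm e).resolve_right fun e1 => ?_
    have e0 : ¬ Commute x a := fun h => z1 (left_eq_mul.1 (h.eq.symm.trans e1))
    obtain ⟨a2, e2, e3, e4, e5⟩ := p1 a ha
    have e6 : x * a * x⁻¹ = a * z := by
      rw [e1, mul_assoc, ← hz, ← mul_assoc, mul_inv_cancel_right]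
    have e7 : Commute (x * a2 * x⁻¹) (a * z) := e6 ▸ (Commute.symm e3).conj x
    have e8 : Commute (x * a2 * x⁻¹) a := by
      simpa [mul_assoc, z2] using e7.mul_right (cz _)
    have e9 : f (x * a2 * x⁻¹) ≠ f a := fun h => ne ha e4 (by
      simp only [map_mul, map_inv] at h
      rw [mul_inv_eq_iff_eq_mul, ← e.eq] at h
      exact mul_left_cancel h)
    have e10 : ∀ w, Commute x w → x * a2 * x⁻¹ = a * a2 * w → a * a2 * w * w = a2 * a → False :=
      fun w c1 c2 c3 => z1 (by
        have c4 : x * (x * a2 * x⁻¹) * x⁻¹ = a2 := by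
          calc _ = (x * x) * a2 * (x * x)⁻¹ := by group
            _ = _ := by rw [X2 x hx]; group
        have c5 : x * (a * a2 * w) * x⁻¹ = a * z * (a * a2 * w) * w := by
          calc _ = x * a * x⁻¹ * (x * a2 * x⁻¹) * (x * w * x⁻¹) := by group
            _ = _ := by rw [e6, c2, c1.eq, mul_inv_cancel_right]
        rw [c2, c5, mul_assoc, c3, hz, ← e3, mul_assoc, ← mul_assoc a, X2 a ha, one_mul] at c4
        exact mul_eq_right.1 c4)
    rcases e5 _ (Xc x a2 e2) e8 with h | h | h | h | h | h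
    · exact e9 (hf' (Or.inl h))
    · exact e9 (hf' (Or.inr h))
    · exact e0 (ab e2 hx ha (mul_inv_eq_iff_eq_mul.1 h) e3)
    · refine e0 (ab e4 hx ha (mul_inv_eq_iff_eq_mul.1 ?_) (Commute.mul_right rfl e3))
      calc _ = x * a * x⁻¹ * (x * a2 * x⁻¹) := by group
        _ = _ := by rw [e6, h, hz a2, mul_assoc, ← mul_assoc z, z2, one_mul]
    · exact e10 1 (Commute.one_right x) (by rwa [mul_one]) (by rw [mul_one, mul_one, e3])
    · exact e10 z (cz x) h (by rw [mul_assoc, z2, mul_one, e3])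
  have G3 : ∀ {a j}, X a → X (a * j) → Commute (f j) (f a) → f j ≠ 1 → X j :=
    fun {a j} ha hj e e' => by
      obtain ⟨a2, e2, -, e4, e5⟩ := q1 a ha
      rcases e5 _ hj (G1 ha hj (map_mul f a j ▸ Commute.mul_left rfl e)) with h | h | h
      · exact absurd (by simpa using h) e'
      · refine Xf e4 ?_
        rw [map_mul, ← h, ← map_mul, ← mul_assoc, X2 a ha, one_mul]
      · exact Xf e2 (by simpa using h)
  have f2 : ∀ {a}, a * a = 1 → f a * f a = 1 := fun h => by rw [← map_mul, h, map_one]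
  have G4 : ∀ {x y}, X x → X y → ¬ Commute (f x) (f y) →
      ∃ k : ℕ, ((f x * f y) ^ k)⁻¹ * f x * (f x * f y) ^ k = f y := fun {x y} hx hy e => by
    refine (mir_dihedral (f2 (X2 x hx)) (f2 (X2 y hy))).resolve_right ?_
    rintro ⟨j, e1, e2, e3, g, e4⟩
    obtain ⟨j, rfl⟩ := fs j
    obtain ⟨g, rfl⟩ := fs g
    have hj := G3 hx (e4.elim (fun h => Xf (Xc g x hx) (by simpa using h))
      fun h => Xf (Xc g y hy) (by simpa using h)) e2 e1
    exact e (cm' (.inl (ab hj hx hy (G1 hj hx e2.symm) (G1 hj hy e3.symm))))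
  have G2 : ∀ {a x b}, X a → X x → Z b → Commute x a → Commute (f b) (f a) → Commute (f b) (f x) :=
    fun {a x b} ha hx hb e e' => by
      obtain ⟨a0, h0, e0⟩ := p2 b hb
      by_cases c : Commute (f a0) (f a)
      · exact cm' (e0 x hx (ab ha hx h0 e (G1 ha h0 c)))
      obtain ⟨k, hk⟩ := G4 h0 ha c
      have c1 : Commute (f b) (f ((a0 * a) ^ k)) := by
        rw [map_pow, map_mul]; exact ((cm' (e0 a0 h0 rfl)).mul_right e').pow_right k
      have c2 : f a0 = f ((a0 * a) ^ k * a * ((a0 * a) ^ k)⁻¹) := by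
        rw [map_mul, map_mul, map_inv, map_pow, map_mul]
        generalize (f a0 * f a) ^ k = q at hk
        rw [← hk]; group
      have c3 := cm' (e0 _ (Xc ((a0 * a) ^ k) x hx) (G1 h0 (Xc _ x hx) (c2 ▸ cm' (.inl (e.conj _)))))
      rw [map_mul, map_mul, map_inv] at c3
      simpa [mul_assoc] using (c1.inv_right.mul_right c3).mul_right c1
  have G5 : ∀ {a b}, X a → Z b → Commute (f a) (f b) := fun {a b} ha hb => by
    by_contra e
    rcases mir_dihedral (f2 (X2 a ha)) (f2 (Z2 b hb)) with ⟨k, h⟩ | ⟨j, e1, e2, e3, g, e4⟩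
    · exact XZ _ (Xc ((a * b) ^ k)⁻¹ a ha) (Zf hb (by simpa using h))
    obtain ⟨j, rfl⟩ := fs j
    obtain ⟨g, rfl⟩ := fs g
    rcases e4 with h | h
    · have hj := G3 ha (Xf (Xc g a ha) (by simpa using h)) e2 e1
      exact e (G2 hj ha hb (G1 hj ha e2.symm) e3.symm).symm
    have hβ : Z (a * j) := Zf (Zc g b hb) (by simpa using h)
    obtain ⟨a2, f1, f3, f4, f5⟩ := q1 a ha
    have ha' := Xc b a ha
    have f6 : Commute (f j) (f (b * a * b⁻¹)) := by
      simpa using (e3.mul_right e2).mul_right e3.inv_right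
    have f7 : ¬ Commute (f a) (f (b * a * b⁻¹)) := fun c => by
      have c1 : Commute (f (a * (b * a * b⁻¹))) (f a) := map_mul f a _ ▸ Commute.mul_left rfl c.symm
      have c2 := G3 ha (j := a * (b * a * b⁻¹)) (by rwa [← mul_assoc, X2 a ha, one_mul]) c1
        fun h => e (by
          rw [map_mul, ← f2 (X2 a ha), mul_left_cancel_iff, map_mul, map_mul, map_inv,
            mul_inv_eq_iff_eq_mul] at h
          exact h.symm)
      refine e (G2 c2 ha hb (G1 c2 ha c1.symm) (mul_inv_eq_iff_eq_mul.1 ?_)).symm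
      rw [map_mul, c.eq]
      nth_rewrite 1 [← c.eq]
      simp only [map_mul, map_inv]
      calc _ = f b * f a * (f b * f b) * (f b)⁻¹ * f a * (f b * f b)⁻¹ := by group
        _ = _ := by rw [f2 (Z2 b hb)]; group
    have f9 : ∀ {x}, X x → Commute x a → Commute (f j) (f x) := fun hx c => by
      have := (cm' (.inl c.symm)).mul_left
        (G2 ha hx hβ c (map_mul f a j ▸ Commute.mul_left rfl e2))
      rwa [map_mul, ← mul_assoc, f2 (X2 a ha), one_mul] at this
    have tr : ∀ {x}, X x → Commute x a → (Commute j a ↔ Commute j x) := fun {x} hx c => by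
      obtain ⟨k, hk⟩ := G4 ha ha' f7
      obtain ⟨l, hl⟩ := G4 ha' hx fun d => f7 (cm' (.inl (ab hx ha ha' c.symm (G1 hx ha' d))))
      obtain ⟨g, hg⟩ := fs ((f a * f (b * a * b⁻¹)) ^ k * (f (b * a * b⁻¹) * f x) ^ l)⁻¹
      have g1 : f (g * a * g⁻¹) = f x := by
        rw [map_mul, map_mul, map_inv, hg, inv_inv, mul_inv_rev, ← mul_assoc, mul_assoc _ _ (f a),
          mul_assoc _ (_ * f a), hk, hl]
      have g2 : f (g * j * g⁻¹) = f j := by
        rw [map_mul, map_mul, map_inv, mul_inv_eq_iff_eq_mul, hg]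
        exact (((e2.mul_right f6).pow_right k).mul_right ((f6.mul_right (f9 hx c)).pow_right l)).inv_right.symm
      exact ⟨fun c => cf g1.symm (cf g2.symm (c.conj g).symm).symm,
        fun c => (Commute.conj_iff g).1 (cf g1 (cf g2 c.symm).symm)⟩
    by_cases c : Commute j a
    · exact ne ha f4 (hf' (p3 a a2 _ ha f1 hβ f3.symm (Commute.mul_left rfl c)
        (Commute.mul_left f3 ((tr f1 f3.symm).1 c))))
    · have c1 := (cm e2).resolve_left c
      have c2 := (cm (f9 f1 f3.symm)).resolve_left fun h => c ((tr f1 f3.symm).2 h)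
      refine c ((tr f4 (Commute.mul_left rfl f3.symm)).2 ?_)
      change j * (a * a2) = a * a2 * j
      rw [← mul_assoc, c1, mul_assoc _ z, ← hz, ← mul_assoc, mul_assoc a, c2, mul_assoc, mul_assoc,
        z2, mul_one, mul_assoc]
  obtain ⟨b, hb, e⟩ := p4 t ht
  have e1 : Commute b (t' * t'') := by
    refine (cm (map_mul f t' t'' ▸ (G5 ht' hb).symm.mul_right (G5 ht'' hb).symm)).resolve_right
      fun h => z1 ?_
    have e2 : b * (t' * t'') * b⁻¹ = t' * t'' * z := by
      rw [h, mul_assoc, ← hz, ← mul_assoc, mul_inv_cancel_right]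
    have e3 := congrArg (· ^ 3) e2
    simp only [conj_pow, (cz _).mul_pow, hs] at e3
    simpa [pow_three, z2] using e3.symm
  rcases p3 t _ b ht (Xc (t' * t'') t ht) hb h1 e ((e1.mul_right e).mul_right e1.inv_right) with h | h
  exacts [h2 h, h3 h]

end Cfsg.Agent.HN
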